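import Mathlib
import Cfsg.Prelude.Def_LieTypeDatum
import Cfsg.Agent.Lib.Helper14.FldP
import Cfsg.Agent.Lib.Helper8.PlusCoset
import Cfsg.Agent.Lib.Helper43.OMinusBal.DefsA

/-!
S2733, package P-A1: an automorphism of odd prime order of `PΩ⁻_{2m+2}(F)` (`m ≥ 3`) which is not
inner-diagonal is a field automorphism.
-/

set_option autoImplicit false

namespace Cfsg.Agent.Lib.Helper14.OMinusBal

open Matrix Module Subgroup
open Cfsg.Agent.Lib.Helper14
open Cfsg.Agent.Lib.Helper44 (simAut)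
open Cfsg.Agent.Lib.Helper43.FieldAut (fixF mem_fixF)

section transportK

variable {ι : Type} [Fintype ι] [DecidableEq ι] {F : Type*} [Field F]

theorem isoIsomK_mem (Qf Qf' : (ι → F) → F) (T : GL ι F) (κ : F) (hκ : κ ≠ 0)
    (hT : ∀ v, κ * Qf ((T : Matrix ι ι F) *ᵥ v) = Qf' v) (s : GL ι F)
    (hs : s ∈ Cfsg.isometryGroup F Qf') : T * s * T⁻¹ ∈ Cfsg.isometryGroup F Qf := by
  rw [mem_isometryGroup_iff] at hs ⊢
  intro v
  have hT' : ∀ w, Qf ((T : Matrix ι ι F) *ᵥ w) = κ⁻¹ * Qf' w := by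
    intro w
    rw [← hT, ← mul_assoc, inv_mul_cancel₀ hκ, one_mul]
  have e1 : v = (T : Matrix ι ι F) *ᵥ (((T⁻¹ : GL ι F) : Matrix ι ι F) *ᵥ v) := by
    rw [mulVec_mulVec, ← Units.val_mul, mul_inv_cancel, Units.val_one, one_mulVec]
  have e2 : ((T * s * T⁻¹ : GL ι F) : Matrix ι ι F) *ᵥ v =
      (T : Matrix ι ι F) *ᵥ ((s : Matrix ι ι F) *ᵥ (((T⁻¹ : GL ι F) : Matrix ι ι F) *ᵥ v)) := by
    rw [Units.val_mul, Units.val_mul, mulVec_mulVec, mulVec_mulVec, Matrix.mul_assoc]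
  rw [e2, hT', hs, ← hT', ← e1]

theorem isoIsomK_mem' (Qf Qf' : (ι → F) → F) (T : GL ι F) (κ : F)
    (hT : ∀ v, κ * Qf ((T : Matrix ι ι F) *ᵥ v) = Qf' v) (s : GL ι F)
    (hs : s ∈ Cfsg.isometryGroup F Qf) : T⁻¹ * s * T ∈ Cfsg.isometryGroup F Qf' := by
  rw [mem_isometryGroup_iff] at hs ⊢
  intro v
  have e2 : (T : Matrix ι ι F) *ᵥ (((T⁻¹ * s * T : GL ι F) : Matrix ι ι F) *ᵥ v) =
      (s : Matrix ι ι F) *ᵥ ((T : Matrix ι ι F) *ᵥ v) := by
    rw [mulVec_mulVec, mulVec_mulVec, ← Units.val_mul, ← Units.val_mul, ← mul_assoc, ← mul_assoc,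
      mul_inv_cancel, one_mul]
  rw [← hT, e2, hs, hT]

/-- The isomorphism of isometry groups given by a change of basis `T` with
`κ Qf (T v) = Qf' v`. -/
noncomputable def isoIsomK (Qf Qf' : (ι → F) → F) (T : GL ι F) (κ : F) (hκ : κ ≠ 0)
    (hT : ∀ v, κ * Qf ((T : Matrix ι ι F) *ᵥ v) = Qf' v) :
    ↥(Cfsg.isometryGroup F Qf') ≃* ↥(Cfsg.isometryGroup F Qf) where
  toFun s := ⟨T * (s : GL ι F) * T⁻¹, isoIsomK_mem Qf Qf' T κ hκ hT _ s.2⟩
  invFun s := ⟨T⁻¹ * (s : GL ι F) * T, isoIsomK_mem' Qf Qf' T κ hT _ s.2⟩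
  left_inv s := by
    apply Subtype.ext
    show T⁻¹ * (T * (s : GL ι F) * T⁻¹) * T = s
    group
  right_inv s := by
    apply Subtype.ext
    show T * (T⁻¹ * (s : GL ι F) * T) * T⁻¹ = s
    group
  map_mul' s t := by
    apply Subtype.ext
    show T * ((s : GL ι F) * (t : GL ι F)) * T⁻¹ = T * (s : GL ι F) * T⁻¹ * (T * (t : GL ι F) * T⁻¹)
    group

/-- The induced isomorphism `PΩ(Qf') ≃* PΩ(Qf)`. -/
noncomputable def transPOK (Qf Qf' : (ι → F) → F) (T : GL ι F) (κ : F) (hκ : κ ≠ 0)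
    (hT : ∀ v, κ * Qf ((T : Matrix ι ι F) *ᵥ v) = Qf' v) :
    Cfsg.POmega F Qf' ≃* Cfsg.POmega F Qf :=
  centerQuotEquiv (commEquiv (isoIsomK Qf Qf' T κ hκ hT))

theorem transPOK_mk (Qf Qf' : (ι → F) → F) (T : GL ι F) (κ : F) (hκ : κ ≠ 0)
    (hT : ∀ v, κ * Qf ((T : Matrix ι ι F) *ᵥ v) = Qf' v) (s : ↥(Cfsg.Omega F Qf')) :
    transPOK Qf Qf' T κ hκ hT (QuotientGroup.mk s) =
      QuotientGroup.mk (commEquiv (isoIsomK Qf Qf' T κ hκ hT) s) := rfl

theorem transPOK_symm_mk (Qf Qf' : (ι → F) → F) (T : GL ι F) (κ : F) (hκ : κ ≠ 0)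
    (hT : ∀ v, κ * Qf ((T : Matrix ι ι F) *ᵥ v) = Qf' v) (s : ↥(Cfsg.Omega F Qf)) :
    (transPOK Qf Qf' T κ hκ hT).symm (QuotientGroup.mk s) =
      QuotientGroup.mk ((commEquiv (isoIsomK Qf Qf' T κ hκ hT)).symm s) := by
  rw [MulEquiv.symm_apply_eq, transPOK_mk, MulEquiv.apply_symm_apply]

/-- Transport of a semisimilarity along a similarity change of basis. -/
theorem transK_mem_semiSim (Qf Qf' : (ι → F) → F) (T : GL ι F) (κ : F) (hκ : κ ≠ 0)
    (hT : ∀ v, κ * Qf ((T : Matrix ι ι F) *ᵥ v) = Qf' v) (x : SemiGL ι F)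
    (hx : x ∈ semiSim Qf') :
    SemidirectProduct.inl T * x * (SemidirectProduct.inl T)⁻¹ ∈ semiSim Qf := by
  obtain ⟨c, hc⟩ := (mem_semiSim_iff Qf' x).mp hx
  rw [mem_semiSim_iff]
  have hc0 : κ⁻¹ * (c : F) * x.right κ ≠ 0 :=
    mul_ne_zero (mul_ne_zero (inv_ne_zero hκ) c.ne_zero) ((map_ne_zero _).mpr hκ)
  refine ⟨Units.mk0 _ hc0, fun v => ?_⟩
  have hT' : ∀ w, Qf ((T : Matrix ι ι F) *ᵥ w) = κ⁻¹ * Qf' w := by
    intro w
    rw [← hT, ← mul_assoc, inv_mul_cancel₀ hκ, one_mul]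
  have e1 : ∀ w, Qf' (sact ((SemidirectProduct.inl T : SemiGL ι F)⁻¹) w) = κ * Qf w := by
    intro w
    rw [← hT, ← sact_inl, sact_sact_inv]
  have hr : (SemidirectProduct.inl T * x * (SemidirectProduct.inl T)⁻¹ : SemiGL ι F).right =
      x.right := by
    rw [SemidirectProduct.mul_right, SemidirectProduct.mul_right, SemidirectProduct.inv_right,
      SemidirectProduct.right_inl, inv_one, mul_one, one_mul]
  rw [sact_mul, sact_mul, sact_inl, hT', hc, e1, hr, Units.val_mk0, map_mul]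
  ring

set_option maxHeartbeats 1600000 in
/-- Conjugating the automorphism induced by a semisimilarity of `Qf'` by the transport
isomorphism gives the automorphism induced by the transported semisimilarity. -/
theorem transPOK_semiAut (Qf Qf' : (ι → F) → F) (T : GL ι F) (κ : F) (hκ : κ ≠ 0)
    (hT : ∀ v, κ * Qf ((T : Matrix ι ι F) *ᵥ v) = Qf' v) (x : ↥(semiSim Qf')) :
    ((transPOK Qf Qf' T κ hκ hT).symm.trans (semiAut Qf' x)).trans (transPOK Qf Qf' T κ hκ hT) =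
      semiAut Qf ⟨SemidirectProduct.inl T * (x : SemiGL ι F) * (SemidirectProduct.inl T)⁻¹,
        transK_mem_semiSim Qf Qf' T κ hκ hT _ x.2⟩ := by
  apply MulEquiv.ext
  intro q
  obtain ⟨s, rfl⟩ := QuotientGroup.mk_surjective q
  rw [MulEquiv.trans_apply, MulEquiv.trans_apply, transPOK_symm_mk, semiAut_mk, transPOK_mk,
    semiAut_mk]
  congr 1
  apply Subtype.ext
  apply Subtype.ext
  show T * semiActGL (x : SemiGL ι F) (T⁻¹ * ((s : ↥(Cfsg.isometryGroup F Qf)) : GL ι F) * T) *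
      T⁻¹ = semiActGL (SemidirectProduct.inl T * (x : SemiGL ι F) * (SemidirectProduct.inl T)⁻¹)
        ((s : ↥(Cfsg.isometryGroup F Qf)) : GL ι F)
  have h1 : ∀ u : GL ι F, semiActGL (SemidirectProduct.inl T : SemiGL ι F) u = T * u * T⁻¹ := by
    intro u
    rw [semiActGL_apply, SemidirectProduct.left_inl, SemidirectProduct.right_inl, glMap_one]
  have h2 : ∀ u : GL ι F,
      semiActGL ((SemidirectProduct.inl T : SemiGL ι F)⁻¹) u = T⁻¹ * u * T := by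
    intro u
    have h3 : semiActGL (SemidirectProduct.inl T : SemiGL ι F)
        (semiActGL ((SemidirectProduct.inl T : SemiGL ι F)⁻¹) u) = u := by
      rw [← MulAut.mul_apply, ← map_mul, mul_inv_cancel, map_one, MulAut.one_apply]
    rw [h1] at h3
    calc semiActGL ((SemidirectProduct.inl T : SemiGL ι F)⁻¹) u
        = T⁻¹ * (T * semiActGL ((SemidirectProduct.inl T : SemiGL ι F)⁻¹) u * T⁻¹) * T := by
          group
      _ = T⁻¹ * u * T := by rw [h3]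
  have h4 : semiActGL (SemidirectProduct.inl T * (x : SemiGL ι F) * (SemidirectProduct.inl T)⁻¹) =
      semiActGL (SemidirectProduct.inl T : SemiGL ι F) * semiActGL (x : SemiGL ι F) *
        semiActGL ((SemidirectProduct.inl T : SemiGL ι F)⁻¹) := by
    rw [map_mul, map_mul]
  rw [h4, MulAut.mul_apply, MulAut.mul_apply, h1, h2]

set_option maxHeartbeats 1600000 in
/-- A semisimilarity with a frame to a form compatible with its field automorphism induces, in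
the frame, the standard field automorphism. -/
theorem field_of_frame (Q : QuadraticForm F (ι → F)) (Q' : (ι → F) → F)
    (S : ↥(semiSim ⇑Q)) (σ : RingAut F) (hσ : (S : SemiGL ι F).right = σ)
    (hσQ' : ∀ v : ι → F, Q' (fun i => σ (v i)) = σ (Q' v))
    (A : Matrix ι ι F) (ν κ : F) (hA : A.det ≠ 0) (hν : ν ≠ 0) (hκ : κ ≠ 0)
    (h1 : (ν • ((S : SemiGL ι F).left : Matrix ι ι F)) * A.map (S : SemiGL ι F).right = A)
    (h2 : ∀ v, κ * Q (A *ᵥ v) = Q' v) :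
    ∃ ψ : Cfsg.POmega F ⇑Q ≃* Cfsg.POmega F Q',
      Cfsg.IsFieldAutPOmegaOf Q' σ ((ψ.symm.trans (semiAut ⇑Q S)).trans ψ) := by
  obtain ⟨T, hT⟩ : ∃ T : GL ι F, (T : Matrix ι ι F) = A :=
    ⟨Matrix.GeneralLinearGroup.mkOfDetNeZero A hA, rfl⟩
  have hTQ : ∀ v, κ * Q ((T : Matrix ι ι F) *ᵥ v) = Q' v := by
    intro v
    rw [hT]
    exact h2 v
  obtain ⟨fldS, hfl, hfr⟩ : ∃ S₀ : ↥(semiSim Q'), (S₀ : SemiGL ι F).left = 1 ∧
      (S₀ : SemiGL ι F).right = σ := by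
    refine ⟨⟨⟨1, σ⟩, ?_⟩, rfl, rfl⟩
    rw [mem_semiSim_iff]
    refine ⟨1, fun v => ?_⟩
    unfold sact
    rw [Units.val_one, one_mulVec, Units.val_one, one_mul]
    exact hσQ' v
  obtain ⟨P₀, hP₀⟩ : ∃ P₀, P₀ = transPOK (⇑Q) Q' T κ hκ hTQ := ⟨_, rfl⟩
  obtain ⟨S', hS'⟩ : ∃ S' : ↥(semiSim ⇑Q), S' =
      ⟨SemidirectProduct.inl T * (fldS : SemiGL ι F) * (SemidirectProduct.inl T)⁻¹,
        transK_mem_semiSim (⇑Q) Q' T κ hκ hTQ _ fldS.2⟩ := ⟨_, rfl⟩
  have hS'c : (S' : SemiGL ι F) =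
      SemidirectProduct.inl T * (fldS : SemiGL ι F) * (SemidirectProduct.inl T)⁻¹ := by
    rw [hS']
  have hS'r : (S' : SemiGL ι F).right = (S : SemiGL ι F).right := by
    rw [hS'c, hσ, SemidirectProduct.mul_right, SemidirectProduct.mul_right,
      SemidirectProduct.inv_right, SemidirectProduct.right_inl, inv_one, mul_one, one_mul, hfr]
  have hTinv : ((T⁻¹ : GL ι F) : Matrix ι ι F) * A = 1 := by
    rw [← hT, ← Units.val_mul, inv_mul_cancel, Units.val_one]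
  have hS'l : ((S' : SemiGL ι F).left : Matrix ι ι F) =
      A * (((T⁻¹ : GL ι F) : Matrix ι ι F)).map σ := by
    rw [hS'c, Cfsg.Agent.Lib.Helper8.PlusCoset.mul_left_mat,
      Cfsg.Agent.Lib.Helper8.PlusCoset.mul_left_mat, SemidirectProduct.mul_right,
      SemidirectProduct.left_inl, SemidirectProduct.right_inl, hfl, hfr, Units.val_one, one_mul,
      ← map_inv, SemidirectProduct.left_inl, hT, map_one_eq, Matrix.mul_one]
  have h1' : ((1 : F) • ((S' : SemiGL ι F).left : Matrix ι ι F)) *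
      A.map (S : SemiGL ι F).right = A := by
    have e : (((T⁻¹ : GL ι F) : Matrix ι ι F) * A).map σ =
        (((T⁻¹ : GL ι F) : Matrix ι ι F)).map σ * A.map σ :=
      Matrix.map_mul (f := (σ : F →+* F))
    have e1 : (1 : Matrix ι ι F).map σ = 1 := by
      ext i j
      simp [Matrix.one_apply, apply_ite]
    rw [one_smul, hS'l, hσ, Matrix.mul_assoc, ← e, hTinv, e1, Matrix.mul_one]
  obtain ⟨d, hdmat, -, hd⟩ := semi_conj_of_frames Q Q' S S' hS'r A A ν κ 1 κ hA hA hν hκ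
    one_ne_zero hκ h1 h1' h2 h2
  have hd1 : d = 1 := by
    apply Subtype.ext
    apply Units.ext
    rw [hdmat, Matrix.mul_nonsing_inv A (isUnit_iff_ne_zero.mpr hA)]
    rfl
  rw [hd1, map_one, one_mul, inv_one, mul_one] at hd
  refine ⟨P₀.symm, ?_⟩
  rw [← hd]
  have hconj : (P₀.symm.symm.trans (semiAut ⇑Q S')).trans P₀.symm = semiAut Q' fldS := by
    have h := transPOK_semiAut (⇑Q) Q' T κ hκ hTQ fldS
    rw [← hP₀, ← hS'] at h
    rw [← h]
    apply MulEquiv.ext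
    intro t
    simp
  rw [hconj]
  intro s s' hs
  apply (induced_iff_semiAut Q' fldS _).mpr rfl
  rw [hs, hfl, hfr, inv_one, Units.val_one, Matrix.one_mul, Matrix.mul_one]

end transportK

section aniso

/-- Over a finite field there is an anisotropic binary quadratic form. -/
theorem exists_aniso (K : Type*) [Field K] [Finite K] :
    ∃ a b : K, ∀ z₁ z₂ : K, z₁ ^ 2 + a * z₁ * z₂ + b * z₂ ^ 2 = 0 → z₁ = 0 ∧ z₂ = 0 := by
  have hni : ¬ Function.Injective (fun w : K => w ^ 2 + w) := by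
    intro h
    have h1 : (fun w : K => w ^ 2 + w) 0 = (fun w : K => w ^ 2 + w) (-1) := by
      show (0 : K) ^ 2 + 0 = (-1) ^ 2 + (-1)
      ring
    have h2 : (0 : K) = -1 := h h1
    have h3 : (1 : K) = 0 := by linear_combination h2
    exact one_ne_zero h3
  have hns : ¬ Function.Surjective (fun w : K => w ^ 2 + w) :=
    fun h => hni (Finite.injective_iff_surjective.mpr h)
  obtain ⟨c, hc⟩ : ∃ c : K, ∀ w : K, w ^ 2 + w ≠ c := by
    by_contra hcon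
    apply hns
    intro c
    by_contra hc
    exact hcon ⟨c, fun w hw => hc ⟨w, hw⟩⟩
  refine ⟨1, -c, fun z₁ z₂ h => ?_⟩
  by_cases hz : z₂ = 0
  · subst hz
    have h0 : z₁ ^ 2 = 0 := by linear_combination h
    exact ⟨(pow_eq_zero_iff two_ne_zero).mp h0, rfl⟩
  · exfalso
    apply hc (z₁ / z₂)
    field_simp
    linear_combination h

/-- A binary form with coefficients fixed by an automorphism of odd order, anisotropic on the
fixed vectors, is anisotropic. -/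
theorem aniso_of_odd_order {F : Type*} [Field F] (σ : RingAut F) (p : ℕ) (hodd : Odd p)
    (hσp : σ ^ p = 1) (a' b' : F) (ha : σ a' = a') (hb : σ b' = b')
    (h0 : ∀ z₁ z₂ : F, σ z₁ = z₁ → σ z₂ = z₂ →
      z₁ ^ 2 + a' * z₁ * z₂ + b' * z₂ ^ 2 = 0 → z₁ = 0 ∧ z₂ = 0) :
    ∀ z₁ z₂ : F, z₁ ^ 2 + a' * z₁ * z₂ + b' * z₂ ^ 2 = 0 → z₁ = 0 ∧ z₂ = 0 := by
  intro z₁ z₂ h
  by_cases hz : z₂ = 0
  · subst hz
    have h0' : z₁ ^ 2 = 0 := by linear_combination h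
    exact ⟨(pow_eq_zero_iff two_ne_zero).mp h0', rfl⟩
  · exfalso
    obtain ⟨θ, hθ⟩ : ∃ θ, θ = z₁ / z₂ := ⟨_, rfl⟩
    have hroot : θ ^ 2 + a' * θ + b' = 0 := by
      rw [hθ]
      field_simp
      linear_combination h
    have hσroot : (σ θ) ^ 2 + a' * σ θ + b' = 0 := by
      have h1 := congrArg σ hroot
      rw [map_add, map_add, map_mul, map_pow, ha, hb, map_zero] at h1
      exact h1
    have hprod : (σ θ - θ) * (σ θ + θ + a') = 0 := by linear_combination hσroot - hroot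
    have hfix : σ θ = θ := by
      rcases mul_eq_zero.mp hprod with h1 | h1
      · exact sub_eq_zero.mp h1
      · have h2 : σ θ = -a' - θ := by linear_combination h1
        have h3 : σ (σ θ) = θ := by
          rw [h2, map_sub, map_neg, ha, h2]
          ring
        obtain ⟨k, hk⟩ := hodd
        have h4 : ∀ n : ℕ, (σ ^ (2 * n)) θ = θ := by
          intro n
          induction n with
          | zero =>
            rw [Nat.mul_zero, pow_zero]
            rfl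
          | succ n ih =>
            have e : 2 * (n + 1) = 2 * n + 2 := by ring
            rw [e, pow_add, RingAut.mul_apply, pow_two, RingAut.mul_apply, h3, ih]
        have h5 : (σ ^ p) θ = θ := by
          rw [hσp]
          rfl
        rw [hk, pow_succ', RingAut.mul_apply, h4] at h5
        exact h5
    have hθ0 := h0 θ 1 hfix (map_one σ) (by linear_combination hroot)
    exact one_ne_zero hθ0.2

end aniso

section main

universe u

variable {F : Type u} [Field F] [Fintype F]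

/-- The product of two similarities interchanging the two classes preserves them. -/
theorem hpSub_mul_of_not (m : ℕ) (hm2 : 2 ≤ m) (a b : F)
    (hab : ∀ z₁ z₂ : F, z₁ ^ 2 + a * z₁ * z₂ + b * z₂ ^ 2 = 0 → z₁ = 0 ∧ z₂ = 0)
    (d e : ↥(Cfsg.Geo.quadSimilarityGroup (F := F) ⇑(minusQF m F a b)))
    (hd : d ∉ hpSub m hm2 a b hab _ rfl) (he : e ∉ hpSub m hm2 a b hab _ rfl) :
    d * e ∈ hpSub m hm2 a b hab _ rfl := by
  have hQ := Cfsg.Agent.Lib.Helper44.minusQF_nondegenerate_all m F a b hab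
  obtain ⟨u₀, hu₀def⟩ : ∃ u₀ : (Fin m ⊕ Fin m) ⊕ Fin 2 → F, u₀ = Pi.single (Sum.inr 0) 1 :=
    ⟨_, rfl⟩
  have hu₀ : minusQF m F a b u₀ ≠ 0 := by
    rw [hu₀def, minusQF_coe]
    simp [Cfsg.quadFormMinus]
  have hl : ∀ u ∈ [u₀], minusQF m F a b u ≠ 0 := by
    intro u hu
    rw [List.mem_singleton] at hu
    rw [hu]
    exact hu₀
  obtain ⟨c, hcdef⟩ : ∃ c, c = prodElt (minusQF m F a b) hQ [u₀] hl :=
    ⟨_, rfl⟩
  have hcodd : Odd (((c : GL ((Fin m ⊕ Fin m) ⊕ Fin 2) F) :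
      Matrix ((Fin m ⊕ Fin m) ⊕ Fin 2) ((Fin m ⊕ Fin m) ⊕ Fin 2) F) - 1).rank := by
    have h := Cfsg.Agent.Lib.Helper44.rank_prodElt (minusQF m F a b) hQ [u₀] hl
    rw [← hcdef, List.length_singleton] at h
    rw [Nat.odd_iff]
    exact h
  obtain ⟨c', hc'⟩ : ∃ c' : ↥(Cfsg.Geo.quadSimilarityGroup (F := F) ⇑(minusQF m F a b)),
      (c' : GL ((Fin m ⊕ Fin m) ⊕ Fin 2) F) = (c : GL ((Fin m ⊕ Fin m) ⊕ Fin 2) F) :=
    ⟨⟨c, Cfsg.Agent.Lib.Helper44.isometryGroup_le_sim _ c.2⟩, rfl⟩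
  have key : ∀ g : ↥(Cfsg.Geo.quadSimilarityGroup (F := F) ⇑(minusQF m F a b)),
      g ∉ hpSub m hm2 a b hab _ rfl → g * c' ∈ hpSub m hm2 a b hab _ rfl := by
    intro g hg
    rcases minus_preserves_or m hm2 a b hab g c hcodd with h | h
    · exact absurd ((mem_hpSub m hm2 a b hab _ rfl g).mpr h) hg
    · rw [mem_hpSub]
      show Cfsg.PreservesSingularClassesMinus m a b
        (((g : GL ((Fin m ⊕ Fin m) ⊕ Fin 2) F) :
            Matrix ((Fin m ⊕ Fin m) ⊕ Fin 2) ((Fin m ⊕ Fin m) ⊕ Fin 2) F) *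
          ((c' : GL ((Fin m ⊕ Fin m) ⊕ Fin 2) F) :
            Matrix ((Fin m ⊕ Fin m) ⊕ Fin 2) ((Fin m ⊕ Fin m) ⊕ Fin 2) F))
      rw [hc']
      exact h
  have h1 := key d hd
  have h2 := key e⁻¹ (fun h => he (by
    have h' := inv_mem h
    rwa [inv_inv] at h'))
  have h3 := mul_mem h1 (inv_mem h2)
  have e4 : d * c' * (e⁻¹ * c')⁻¹ = d * e := by group
  rw [e4] at h3
  exact h3

set_option maxHeartbeats 3200000 in
/-- P-A1 for a general carrier function. -/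
theorem partA1_aux (m : ℕ) (hm : 3 ≤ m) (hm2 : 2 ≤ m) (a b : F)
    (hab : ∀ z₁ z₂ : F, z₁ ^ 2 + a * z₁ * z₂ + b * z₂ ^ 2 = 0 → z₁ = 0 ∧ z₂ = 0)
    (Qf : ((Fin m ⊕ Fin m) ⊕ Fin 2 → F) → F) (hQf : ⇑(minusQF m F a b) = Qf)
    (x : MulAut (Cfsg.POmega F Qf)) (p : ℕ) (hp : p.Prime) (hp2 : p ≠ 2)
    (hord : orderOf x = p)
    (hnot : ¬ ∃ g : GL ((Fin m ⊕ Fin m) ⊕ Fin 2) F,
      g ∈ Cfsg.Geo.quadSimilarityGroup (F := F) Qf ∧
      Cfsg.PreservesSingularClassesMinus m a b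
        (g : Matrix ((Fin m ⊕ Fin m) ⊕ Fin 2) ((Fin m ⊕ Fin m) ⊕ Fin 2) F) ∧
      Cfsg.IsInducedBySemilinearPOmega Qf g (RingEquiv.refl F) x) :
    ∃ (a' b' : F) (ψ : Cfsg.POmega F Qf ≃* Cfsg.POmega F (Cfsg.quadFormMinus m F a' b'))
      (σ : F ≃+* F),
      (∀ z₁ z₂ : F, z₁ ^ 2 + a' * z₁ * z₂ + b' * z₂ ^ 2 = 0 → z₁ = 0 ∧ z₂ = 0) ∧
      σ ≠ RingEquiv.refl F ∧ σ a' = a' ∧ σ b' = b' ∧
      Cfsg.IsFieldAutPOmegaOf (Cfsg.quadFormMinus m F a' b') σ ((ψ.symm.trans x).trans ψ) := by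
  subst hQf
  have hQ := Cfsg.Agent.Lib.Helper44.minusQF_nondegenerate_all m F a b hab
  have hAut := minus_gamma_top m hm a b hab
  have hn5 : 5 ≤ Fintype.card ((Fin m ⊕ Fin m) ⊕ Fin 2) := by
    rw [minus_card_idx]
    omega
  obtain ⟨S, hS⟩ := semiAut_surjective ⇑(minusQF m F a b) hAut x
  obtain ⟨σ, hσdef⟩ : ∃ σ : RingAut F, σ = (S : SemiGL ((Fin m ⊕ Fin m) ⊕ Fin 2) F).right :=
    ⟨_, rfl⟩
  have hodd : Odd p := hp.eq_two_or_odd'.resolve_left hp2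
  obtain ⟨E, hE, hE0⟩ := Cfsg.Agent.Lib.Helper44.minus_ts_three (F := F) m hm a b
  have hσne : σ ≠ 1 := by
    intro hσ1
    obtain ⟨g, hg⟩ := exists_sim_of_right_eq_one ⇑(minusQF m F a b) S (by rw [← hσdef, hσ1])
    have hxg : x = simAut ⇑(minusQF m F a b) g := by
      rw [← hS, ← hg, semiAut_simToSemi]
    have hgp : simAut ⇑(minusQF m F a b) (g ^ p) = 1 := by
      rw [map_pow, ← hxg, ← hord, pow_orderOf_eq_one]
    obtain ⟨lam, hlam, hmat⟩ := Cfsg.Agent.Lib.Helper44.scalar_of_simAut_eq_one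
      (minusQF m F a b) hQ E hE hE0 (g ^ p) hgp
    have hgpmem : g ^ p ∈ hpSub m hm2 a b hab _ rfl := by
      rw [mem_hpSub, hmat, minus_preserves_smul m a b lam hlam]
      exact minus_preserves_one m hm2 a b hab
    have hgmem : g ∈ hpSub m hm2 a b hab _ rfl := by
      by_contra hgn
      have hg2 : g ^ 2 ∈ hpSub m hm2 a b hab _ rfl := by
        rw [pow_two]
        exact hpSub_mul_of_not m hm2 a b hab g g hgn hgn
      obtain ⟨k, hk⟩ := hodd
      have e : g ^ p = (g ^ 2) ^ k * g := by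
        rw [hk, pow_succ, pow_mul]
      rw [e] at hgpmem
      exact hgn ((Subgroup.mul_mem_cancel_left _ (pow_mem hg2 k)).mp hgpmem)
    apply hnot
    refine ⟨(g : GL ((Fin m ⊕ Fin m) ⊕ Fin 2) F), g.2,
      (mem_hpSub m hm2 a b hab _ rfl g).mp hgmem, ?_⟩
    have h := (induced_iff_semiAut ⇑(minusQF m F a b) (simToSemi ⇑(minusQF m F a b) g) x).mpr
      (by rw [semiAut_simToSemi, hxg])
    exact h
  have htype : typeHom (minusQF m F a b) hQ hn5 hAut x = σ := by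
    rw [← hS, typeHom_semiAut, hσdef]
  have hσp : σ ^ p = 1 := by
    have h := congrArg (typeHom (minusQF m F a b) hQ hn5 hAut) (pow_orderOf_eq_one x)
    rw [hord, map_pow, htype, map_one] at h
    exact h
  have hσr : orderOf σ = p := by
    rcases (Nat.dvd_prime hp).mp (orderOf_dvd_of_pow_eq_one hσp) with h | h
    · exact absurd (orderOf_eq_one_iff.mp h) hσne
    · exact h
  have hx_r : semiAut ⇑(minusQF m F a b) S ^ p = 1 := by
    rw [hS, ← hord, pow_orderOf_eq_one]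
  have hZr' : ((S ^ p : ↥(semiSim ⇑(minusQF m F a b))) :
      SemiGL ((Fin m ⊕ Fin m) ⊕ Fin 2) F).right = 1 := by
    rw [Subgroup.coe_pow, semi_pow_right, ← hσdef, hσp]
  obtain ⟨n, hn⟩ := exists_sim_of_right_eq_one ⇑(minusQF m F a b) (S ^ p) hZr'
  have hn1 : simAut ⇑(minusQF m F a b) n = 1 := by
    rw [← semiAut_simToSemi, hn, map_pow, hx_r]
  obtain ⟨lam, hlam, hmat⟩ := Cfsg.Agent.Lib.Helper44.scalar_of_simAut_eq_one (minusQF m F a b)
    hQ E hE hE0 n hn1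
  have hpow : (((S : SemiGL ((Fin m ⊕ Fin m) ⊕ Fin 2) F) ^ p).left :
      Matrix ((Fin m ⊕ Fin m) ⊕ Fin 2) ((Fin m ⊕ Fin m) ⊕ Fin 2) F) =
      lam • (1 : Matrix ((Fin m ⊕ Fin m) ⊕ Fin 2) ((Fin m ⊕ Fin m) ⊕ Fin 2) F) := by
    rw [← hmat, ← simToSemi_left ⇑(minusQF m F a b) n, hn, Subgroup.coe_pow]
  obtain ⟨a₀, b₀, hab₀⟩ := exists_aniso (fixF σ)
  have hσa : σ (a₀ : F) = a₀ := (mem_fixF σ).mp a₀.2
  have hσb : σ (b₀ : F) = b₀ := (mem_fixF σ).mp b₀.2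
  have hab' : ∀ z₁ z₂ : F, z₁ ^ 2 + (a₀ : F) * z₁ * z₂ + (b₀ : F) * z₂ ^ 2 = 0 →
      z₁ = 0 ∧ z₂ = 0 := by
    apply aniso_of_odd_order σ p hodd hσp (a₀ : F) (b₀ : F) hσa hσb
    intro z₁ z₂ h1 h2 h
    have h' := hab₀ ⟨z₁, (mem_fixF σ).mpr h1⟩ ⟨z₂, (mem_fixF σ).mpr h2⟩ (Subtype.ext h)
    exact ⟨congrArg Subtype.val h'.1, congrArg Subtype.val h'.2⟩
  obtain ⟨A, ν, κ, hA, hν, hκ, hA1, hA2⟩ := exists_frame m a b hab
    (S : SemiGL ((Fin m ⊕ Fin m) ⊕ Fin 2) F) S.2 p (by rw [← hσdef]; exact hσr) hp.pos lam hlam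
    hpow (a₀ : F) (b₀ : F) (by rw [← hσdef]; exact hσa) (by rw [← hσdef]; exact hσb) hab'
  have hσcompat : ∀ v : (Fin m ⊕ Fin m) ⊕ Fin 2 → F,
      Cfsg.quadFormMinus m F (a₀ : F) (b₀ : F) (fun i => σ (v i)) =
        σ (Cfsg.quadFormMinus m F (a₀ : F) (b₀ : F) v) := by
    intro v
    have h := quadFormMinus_map m (a₀ : F) (b₀ : F) σ v
    rw [hσa, hσb] at h
    exact h
  obtain ⟨ψ, hψ⟩ := field_of_frame (minusQF m F a b)
    (Cfsg.quadFormMinus m F (a₀ : F) (b₀ : F)) S σ hσdef.symm hσcompat A ν κ hA hν hκ hA1 hA2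
  rw [hS] at hψ
  exact ⟨(a₀ : F), (b₀ : F), ψ, σ, hab', hσne, hσa, hσb, hψ⟩

/-- **P-A1**: an automorphism of odd prime order of `PΩ⁻_{2m+2}(F)` which is not inner-diagonal
is a field automorphism. -/
theorem partA1 : Cfsg.Agent.Lib.Helper43.OMinusBal.PartA1.{u} := by
  intro F _ _ m hm a b hab p hp hp2 x hord hnot
  exact partA1_aux m hm (by omega) a b hab _ (minusQF_coe m F a b) x p hp hp2 hord hnot

end main

end Cfsg.Agent.Lib.Helper14.OMinusBal
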